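import Cfsg.Agent.Sieve.PrimeLocal
import Cfsg.Agent.Involution.Counting
import Cfsg.Agent.Transfer.AbelianFixed
import Mathlib

/-!
# Involutions and Sylow subgroups of prime order
-/

set_option autoImplicit false
set_option linter.style.haveILetI false

namespace CfsgLib.JankoCount

open Subgroup CfsgLib.SylowToolkit CfsgLib.Sieve.PrimeLocal

variable {G : Type*} [Group G] [Finite G]

theorem le_centralizer_self {p n c : ℕ} [hp : Fact p.Prime] (L : HasLocal G p n c) (P : Sylow p G) :
    (P : Subgroup G) ≤ centralizer ((P : Subgroup G) : Set G) := by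
  have hcyc : IsCyclic (P : Subgroup G) := isCyclic_of_prime_card (L.2 P).1
  intro x hx
  exact mem_centralizer_iff.mpr fun y hy => congrArg Subtype.val (hcyc.commGroup.mul_comm ⟨y, hy⟩ ⟨x, hx⟩)

/-- The local data of a prime dividing the order exactly once. -/
theorem exists_local [IsSimpleGroup G] (hc : ¬ IsMulCommutative G) (p m : ℕ) [hp : Fact p.Prime]
    (hcard : Nat.card G = p * m) (hm : ¬ p ∣ m) :
    ∃ n e c, HasLocal G p n c ∧ m = n * (e * c) ∧ n % p = 1 ∧ 1 < n ∧ 2 ≤ e ∧ e ∣ p - 1 := by
  obtain ⟨P⟩ := (inferInstance : Nonempty (Sylow p G))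
  have hP : ∀ R : Sylow p G, Nat.card (R : Subgroup G) = p := fun R => by
    simpa using card_sylow_subgroup_eq (k := 1) (by simpa using hcard) hm R
  have hdvd : p ∣ Nat.card G := hcard ▸ dvd_mul_right p m
  have hcyc : IsCyclic (P : Subgroup G) := isCyclic_of_prime_card (hP P)
  have hPC : (P : Subgroup G) ≤ centralizer ((P : Subgroup G) : Set G) := fun x hx =>
    mem_centralizer_iff.mpr fun y hy => congrArg Subtype.val (hcyc.commGroup.mul_comm ⟨y, hy⟩ ⟨x, hx⟩)
  obtain ⟨c, hcC⟩ : p ∣ Nat.card (centralizer ((P : Subgroup G) : Set G)) := by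
    have := card_dvd_of_le hPC
    rwa [hP P] at this
  set e := (centralizer ((P : Subgroup G) : Set G)).relIndex (normalizer ((P : Subgroup G) : Set G)) with he
  have heC : e * Nat.card (centralizer ((P : Subgroup G) : Set G)) =
      Nat.card (normalizer ((P : Subgroup G) : Set G)) := PrimeGram.relIndex_mul_centralizer (P : Subgroup G)
  have hedvd : e ∣ p - 1 := relIndex_centralizer_dvd_sub_one P (hP P)
  have he2 : 2 ≤ e := by
    rcases Nat.lt_or_ge e 2 with h | h
    · exfalso
      have h0 : e ≠ 0 := Subgroup.index_ne_zero_of_finite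
      exact not_normalizer_le_centralizer hc hdvd P (relIndex_eq_one.mp (by omega))
    · exact h
  refine ⟨Nat.card (Sylow p G), e, c, ⟨rfl, fun R => ⟨hP R, ?_⟩⟩, ?_, card_sylow_mod,
    one_lt_card_sylow hc hdvd, he2, hedvd⟩
  · obtain ⟨g, rfl⟩ := MulAction.exists_smul_eq G P R
    rw [← hcC]
    have hmap : centralizer (((g • P : Sylow p G) : Subgroup G) : Set G) =
        (centralizer ((P : Subgroup G) : Set G)).map (MulAut.conj g).toMonoidHom := by
      rw [Sylow.coe_subgroup_smul]
      ext x
      rw [mem_map_equiv, mem_centralizer_iff, mem_centralizer_iff]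
      constructor
      · intro hx y hy
        have h1 := hx (g * y * g⁻¹) ⟨y, hy, rfl⟩
        simp only [MulAut.conj_symm_apply]
        calc y * (g⁻¹ * x * g) = g⁻¹ * (g * y * g⁻¹ * x) * g := by group
          _ = g⁻¹ * x * g * y := by rw [h1]; group
      · rintro hx _ ⟨y, hy, rfl⟩
        have h1 := hx y hy
        simp only [MulAut.conj_symm_apply] at h1
        show g * y * g⁻¹ * x = x * (g * y * g⁻¹)
        calc g * y * g⁻¹ * x = g * (y * (g⁻¹ * x * g)) * g⁻¹ := by group
          _ = x * (g * y * g⁻¹) := by rw [h1]; group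
    rw [hmap, card_map_of_injective (MulAut.conj g).injective]
  · apply Nat.eq_of_mul_eq_mul_left hp.out.pos
    rw [← hcard, ← card_normalizer_mul P, ← heC, hcC]
    ring

theorem involution_eq_of_mem_zpowers {r w : G} (hr : orderOf r = 4) (hw : w ∈ zpowers r) (hw2 : orderOf w = 2) :
    w = r ^ 2 := by
  obtain ⟨i, rfl⟩ := mem_zpowers_iff.mp hw
  rw [← zpow_mod_orderOf, hr] at hw2 ⊢
  have : i % ((4 : ℕ) : ℤ) = 0 ∨ i % ((4 : ℕ) : ℤ) = 1 ∨ i % ((4 : ℕ) : ℤ) = 2 ∨ i % ((4 : ℕ) : ℤ) = 3 := by
    omega
  rcases this with e | e | e | e <;> rw [e] at hw2 ⊢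
  · simp at hw2
  · rw [zpow_one, hr] at hw2; norm_num at hw2
  · exact zpow_natCast r 2
  · rw [show (3 : ℤ) = ((3 : ℕ) : ℤ) from rfl, zpow_natCast, orderOf_pow, hr] at hw2; norm_num at hw2

theorem orderOf_conj' (g x : G) : orderOf (g * x * g⁻¹) = orderOf x :=
  orderOf_injective (MulAut.conj g).toMonoidHom (MulAut.conj g).injective x

/-- In a simple group with Sylow 2-subgroups of order 8 all involutions are conjugate. -/
theorem isConj_involutions [IsSimpleGroup G] (hc : ¬ IsMulCommutative G) (S : Sylow 2 G)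
    (h8 : Nat.card (S : Subgroup G) = 8) {u v : G} (hu : orderOf u = 2) (hv : orderOf v = 2) : IsConj u v := by
  haveI : Fact (Nat.Prime 2) := ⟨Nat.prime_two⟩
  have hG2 : ∀ H : Subgroup G, H.Normal → H.index ≠ 2 := by
    intro H hH hi
    rcases IsSimpleGroup.eq_bot_or_eq_top_of_normal H hH with rfl | rfl
    · rw [index_bot] at hi
      have := card_subgroup_dvd_card (S : Subgroup G)
      rw [h8, hi] at this
      norm_num at this
    · rw [index_top] at hi; norm_num at hi
  have hmove : ∀ x : G, orderOf x = 2 → ∃ y ∈ (S : Subgroup G), orderOf y = 2 ∧ IsConj x y := by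
    intro x hx
    obtain ⟨T, hT⟩ := (IsPGroup.of_card (n := 1) (show Nat.card (zpowers x) = 2 ^ 1 by
      rw [Nat.card_zpowers, hx, pow_one])).exists_le_sylow
    obtain ⟨g, rfl⟩ := MulAction.exists_smul_eq G T S
    exact ⟨g * x * g⁻¹, ⟨x, hT (mem_zpowers x), rfl⟩, by rw [orderOf_conj', hx], isConj_iff.mpr ⟨g, rfl⟩⟩
  suffices hS : ∀ a ∈ (S : Subgroup G), ∀ b ∈ (S : Subgroup G), orderOf a = 2 → orderOf b = 2 → IsConj a b by
    obtain ⟨a, ha, ha2, hau⟩ := hmove u hu
    obtain ⟨b, hb, hb2, hbv⟩ := hmove v hv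
    exact hau.trans ((hS a ha b hb ha2 hb2).trans hbv.symm)
  by_cases hr : ∃ r ∈ (S : Subgroup G), orderOf r = 4
  · obtain ⟨r, hrS, hr⟩ := hr
    have hMS : zpowers r ≤ (S : Subgroup G) := zpowers_le.mpr hrS
    have hi : (zpowers r).relIndex (S : Subgroup G) = 2 := by
      have := relIndex_mul_relIndex (⊥ : Subgroup G) (zpowers r) (S : Subgroup G) bot_le hMS
      rw [relIndex_bot_left, relIndex_bot_left, Nat.card_zpowers, hr, h8] at this
      omega
    have key : ∀ a ∈ (S : Subgroup G), orderOf a = 2 → IsConj a (r ^ 2) := by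
      intro a ha ha2
      by_cases haM : a ∈ zpowers r
      · rw [involution_eq_of_mem_zpowers hr haM ha2]
      rcases CfsgLib.Transfer.thompsonTransferLemma S (zpowers r) hMS hi a ha2 ha haM with ⟨M, hM, hMi, -⟩ | ⟨g, hg⟩
      · exact absurd hMi (hG2 M hM)
      · exact isConj_iff.mpr ⟨g, involution_eq_of_mem_zpowers hr hg (by rw [orderOf_conj', ha2])⟩
    exact fun a ha b hb ha2 hb2 => (key a ha ha2).trans (key b hb hb2).symm
  push Not at hr
  have hsq : ∀ w ∈ (S : Subgroup G), w * w = 1 := by
    intro w hw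
    have hd := Subgroup.orderOf_dvd_natCard (s := (S : Subgroup G)) hw
    rw [h8] at hd
    have key' : ∀ i ∈ (8 : ℕ).divisors, i = 1 ∨ i = 2 ∨ i = 4 ∨ i = 8 := by decide
    rcases key' _ (Nat.mem_divisors.mpr ⟨hd, by norm_num⟩) with e | e | e | e
    · rw [orderOf_eq_one_iff.mp e, mul_one]
    · rw [← pow_two, ← e]; exact pow_orderOf_eq_one w
    · exact absurd e (hr w hw)
    · exact absurd (by rw [orderOf_pow, e]; norm_num) (hr (w ^ 2) (pow_mem hw 2))
  haveI : IsMulCommutative (S : Subgroup G) := ⟨⟨fun x y => Subtype.ext (by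
    show (x : G) * y = y * x
    have h1 := hsq _ (mul_mem x.2 y.2)
    have h2 := hsq _ x.2
    have h3 := hsq _ y.2
    calc (x : G) * y = ((x : G) * y)⁻¹ := (inv_eq_of_mul_eq_one_right h1).symm
      _ = y * x := by rw [mul_inv_rev, inv_eq_of_mul_eq_one_right h2, inv_eq_of_mul_eq_one_right h3])⟩⟩
  set N := normalizer ((S : Subgroup G) : Set G)
  letI act : MulAction N G :=
    { smul := fun n x => (n : G) * x * (n : G)⁻¹
      one_smul := fun x => by show ((1 : N) : G) * x * ((1 : N) : G)⁻¹ = x; simp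
      mul_smul := fun m n x => by
        show ((m * n : N) : G) * x * ((m * n : N) : G)⁻¹ = (m : G) * ((n : G) * x * (n : G)⁻¹) * (m : G)⁻¹
        simp [mul_assoc] }
  have hsub : ∀ a ∈ (S : Subgroup G), orderOf a = 2 →
      MulAction.orbit N a ⊆ ((S : Subgroup G) : Set G) \ {1} := by
    rintro a ha ha2 _ ⟨n, rfl⟩
    refine ⟨(mem_normalizer_iff.mp n.2 a).mp ha, fun h => ?_⟩
    have h' : orderOf ((n : G) * a * (n : G)⁻¹) = 1 := by
      rw [orderOf_eq_one_iff]; exact h
    rw [orderOf_conj', ha2] at h'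
    norm_num at h'
  have horb : ∀ a ∈ (S : Subgroup G), orderOf a = 2 → Odd (MulAction.orbit N a).ncard ∧
      3 ≤ (MulAction.orbit N a).ncard := by
    intro a ha ha2
    have hodd : Odd (MulAction.orbit N a).ncard := by
      rw [← MulAction.index_stabilizer N a]
      have hle : (S : Subgroup G).subgroupOf N ≤ MulAction.stabilizer N a := by
        intro n hn
        rw [MulAction.mem_stabilizer_iff]
        show (n : G) * a * (n : G)⁻¹ = a
        have : (⟨n, hn⟩ : (S : Subgroup G)) * ⟨a, ha⟩ = ⟨a, ha⟩ * ⟨n, hn⟩ := IsMulCommutative.is_comm.comm _ _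
        exact mul_inv_eq_iff_eq_mul.mpr (congrArg Subtype.val this)
      have h1 := index_dvd_of_le hle
      have h2 : ¬ 2 ∣ ((S : Subgroup G).subgroupOf N).index := fun h =>
        S.not_dvd_index (h.trans (relIndex_dvd_index_of_le (le_normalizer : (S : Subgroup G) ≤ N)))
      rw [← Nat.not_even_iff_odd, even_iff_two_dvd]
      exact fun h => h2 (h.trans h1)
    refine ⟨hodd, ?_⟩
    rcases (MulAction.orbit N a).ncard.eq_zero_or_pos with h | h
    · rw [h] at hodd; exact absurd hodd (by decide)
    by_contra hlt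
    have h1 : (MulAction.orbit N a).ncard = 1 := by
      obtain ⟨k, hk⟩ := hodd; omega
    obtain ⟨b, hb⟩ := Set.ncard_eq_one.mp h1
    have hfix : ∀ n ∈ N, n * a = a * n := by
      intro n hn
      have e1 : (⟨n, hn⟩ : N) • a ∈ MulAction.orbit N a := MulAction.mem_orbit _ _
      have e2 : a ∈ MulAction.orbit N a := MulAction.mem_orbit_self a
      rw [hb, Set.mem_singleton_iff] at e1 e2
      exact mul_inv_eq_iff_eq_mul.mp (e1.trans e2.symm)
    rw [CfsgLib.Transfer.eq_one_of_fixed_by_normalizer' hG2 S ha hfix, orderOf_one] at ha2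
    norm_num at ha2
  intro a ha b hb ha2 hb2
  by_contra hab
  have hconj : ∀ x y : G, y ∈ MulAction.orbit N x → IsConj x y := by
    rintro x _ ⟨n, rfl⟩
    exact isConj_iff.mpr ⟨(n : G), rfl⟩
  have hd : Disjoint (MulAction.orbit N a) (MulAction.orbit N b) :=
    Set.disjoint_left.mpr fun x h1 h2 => hab ((hconj a x h1).trans (hconj b x h2).symm)
  set X : Set G := ((S : Subgroup G) : Set G) \ {1}
  have hX : X.ncard = 7 := by
    rw [Set.ncard_sdiff_singleton_of_mem (one_mem (S : Subgroup G))]
    have : ((S : Subgroup G) : Set G).ncard = 8 := by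
      rw [← Nat.card_coe_set_eq]; exact h8
    rw [this]
  obtain ⟨hoa, h3a⟩ := horb a ha ha2
  obtain ⟨hob, h3b⟩ := horb b hb hb2
  have hu2 := Set.ncard_union_eq hd
  have hle : MulAction.orbit N a ∪ MulAction.orbit N b ⊆ X := Set.union_subset (hsub a ha ha2) (hsub b hb hb2)
  have hne : MulAction.orbit N a ∪ MulAction.orbit N b ≠ X := by
    intro h
    rw [h, hX] at hu2
    obtain ⟨k, hk⟩ := hoa
    obtain ⟨l, hl⟩ := hob
    omega
  obtain ⟨w, hwX, hwn⟩ := Set.exists_of_ssubset (hle.ssubset_of_ne hne)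
  have hw2 : orderOf w = 2 := orderOf_eq_prime (by rw [pow_two]; exact hsq w hwX.1) hwX.2
  obtain ⟨-, h3w⟩ := horb w hwX.1 hw2
  have hd2 : Disjoint (MulAction.orbit N a ∪ MulAction.orbit N b) (MulAction.orbit N w) := by
    refine Set.disjoint_left.mpr fun x h1 h2 => hwn ?_
    rcases h1 with h1 | h1
    · exact .inl (by rw [← MulAction.orbit_eq_iff.mpr h1, MulAction.orbit_eq_iff.mpr h2]; exact MulAction.mem_orbit_self w)
    · exact .inr (by rw [← MulAction.orbit_eq_iff.mpr h1, MulAction.orbit_eq_iff.mpr h2]; exact MulAction.mem_orbit_self w)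
  have h4 := Set.ncard_union_eq hd2
  have h5 := Set.ncard_le_ncard (Set.union_subset hle (hsub w hwX.1 hw2))
  rw [h4, hu2, hX] at h5
  omega

variable (hone : ∀ u v : G, orderOf u = 2 → orderOf v = 2 → IsConj u v)
include hone

theorem invol_mul_card {t : G} (ht : orderOf t = 2) :
    Nat.card {u : G // orderOf u = 2} * Nat.card (centralizer ({t} : Set G)) = Nat.card G := by
  have hkey : ∀ a b : G, a⁻¹ * b ∈ centralizer ({t} : Set G) ↔ a * t * a⁻¹ = b * t * b⁻¹ := by
    intro a b
    rw [mem_centralizer_singleton_iff]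
    constructor
    · intro h
      calc a * t * a⁻¹ = a * (t * (a⁻¹ * b)) * b⁻¹ := by group
        _ = b * t * b⁻¹ := by rw [← h]; group
    · intro h
      calc a⁻¹ * b * t = a⁻¹ * (b * t * b⁻¹) * b := by group
        _ = t * (a⁻¹ * b) := by rw [← h]; group
  let f : G ⧸ centralizer ({t} : Set G) → {u : G // orderOf u = 2} :=
    Quotient.lift (fun g => ⟨g * t * g⁻¹, by rw [orderOf_conj', ht]⟩)
      (fun a b hab => Subtype.ext ((hkey a b).mp (QuotientGroup.leftRel_apply.mp hab)))
  have hf : Function.Bijective f := by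
    constructor
    · intro x y h
      induction x using QuotientGroup.induction_on
      induction y using QuotientGroup.induction_on
      exact QuotientGroup.eq.mpr ((hkey _ _).mpr (congrArg Subtype.val h))
    · intro u
      obtain ⟨g, hg⟩ := isConj_iff.mp (hone t u ht u.2)
      exact ⟨(g : G ⧸ _), Subtype.ext hg⟩
  rw [← Nat.card_eq_of_bijective f hf, mul_comm]
  exact card_mul_index _

theorem dvd_centralizer_iff {p n c : ℕ} [hp : Fact p.Prime] (hp2 : p ≠ 2) (L : HasLocal G p n c) {t : G}
    (ht : orderOf t = 2) : p ∣ Nat.card (centralizer ({t} : Set G)) ↔ 2 ∣ c := by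
  haveI : Fact (Nat.Prime 2) := ⟨Nat.prime_two⟩
  constructor
  · intro h
    obtain ⟨⟨x, hxC⟩, hx⟩ := exists_prime_orderOf_dvd_card' (G := centralizer ({t} : Set G)) p h
    rw [orderOf_mk] at hx
    obtain ⟨R, hR⟩ := exists_zpowers_eq_sylow L hx
    have htR : t ∈ centralizer ((R : Subgroup G) : Set G) := by
      rw [hR, mem_centralizer_iff]
      intro b hb
      obtain ⟨i, rfl⟩ := mem_zpowers_iff.mp hb
      exact ((show Commute x t from mem_centralizer_singleton_iff.mp hxC).zpow_left i).eq
    have := Subgroup.orderOf_dvd_natCard _ htR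
    rw [ht, (L.2 R).2] at this
    exact (Nat.prime_two.dvd_mul.mp this).resolve_left fun h => hp2
      ((Nat.prime_dvd_prime_iff_eq Nat.prime_two hp.out).mp h).symm
  · intro h
    obtain ⟨P⟩ := (inferInstance : Nonempty (Sylow p G))
    obtain ⟨⟨u, huC⟩, hu⟩ := exists_prime_orderOf_dvd_card' (G := centralizer ((P : Subgroup G) : Set G)) 2
      (by rw [(L.2 P).2]; exact h.trans (dvd_mul_left c p))
    rw [orderOf_mk] at hu
    obtain ⟨⟨x, hxP⟩, hx⟩ := exists_prime_orderOf_dvd_card' (G := (P : Subgroup G)) p (by rw [(L.2 P).1])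
    rw [orderOf_mk] at hx
    obtain ⟨g, hg⟩ := isConj_iff.mp (hone u t hu ht)
    have hmem : g * x * g⁻¹ ∈ centralizer ({t} : Set G) := by
      rw [mem_centralizer_singleton_iff, ← hg]
      calc g * x * g⁻¹ * (g * u * g⁻¹) = g * (x * u) * g⁻¹ := by group
        _ = g * (u * x) * g⁻¹ := by rw [mem_centralizer_iff.mp huC x hxP]
        _ = g * u * g⁻¹ * (g * x * g⁻¹) := by group
    have := Subgroup.orderOf_dvd_natCard _ hmem
    rwa [orderOf_conj', hx] at this

/-- Counting the commuting pairs of an involution and a Sylow subgroup of order `p`. -/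
theorem double_count {p n c : ℕ} [hp : Fact p.Prime] (L : HasLocal G p n c) {t : G} (ht : orderOf t = 2)
    (hpt : p ∣ Nat.card (centralizer ({t} : Set G))) (P : Sylow p G) :
    Nat.card {u : G // orderOf u = 2} * Nat.card (Sylow p (centralizer ({t} : Set G))) =
      n * Nat.card {x : centralizer ((P : Subgroup G) : Set G) // orderOf x = 2} := by
  classical
  haveI := Fintype.ofFinite (Sylow p G)
  haveI := Fintype.ofFinite {u : G // orderOf u = 2}
  let I := {u : G // orderOf u = 2}
  have hmem : ∀ (g w : G) (R : Sylow p G), w ∈ centralizer ((R : Subgroup G) : Set G) →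
      g * w * g⁻¹ ∈ centralizer (((g • R : Sylow p G) : Subgroup G) : Set G) := by
    intro g w R hw
    rw [Sylow.coe_subgroup_smul, mem_centralizer_iff]
    rintro _ ⟨y, hy, rfl⟩
    show g * y * g⁻¹ * (g * w * g⁻¹) = g * w * g⁻¹ * (g * y * g⁻¹)
    calc g * y * g⁻¹ * (g * w * g⁻¹) = g * (y * w) * g⁻¹ := by group
      _ = g * (w * y) * g⁻¹ := by rw [mem_centralizer_iff.mp hw y hy]
      _ = _ := by group
  have hP : ∀ R : Sylow p G, Nat.card {u : I // (u : G) ∈ centralizer ((R : Subgroup G) : Set G)} =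
      Nat.card {x : centralizer ((P : Subgroup G) : Set G) // orderOf x = 2} := by
    intro R
    obtain ⟨g, hg⟩ := MulAction.exists_smul_eq G R P
    have hg' : g⁻¹ • P = R := by rw [← hg, inv_smul_smul]
    refine Nat.card_congr
      { toFun := fun u => ⟨⟨g * (u.1 : G) * g⁻¹, hg ▸ hmem g _ R u.2⟩, by rw [orderOf_mk, orderOf_conj', u.1.2]⟩
        invFun := fun x => ⟨⟨g⁻¹ * (x.1 : G) * g, ?_⟩, ?_⟩
        left_inv := fun u => Subtype.ext (Subtype.ext (by simp [mul_assoc]))
        right_inv := fun x => Subtype.ext (Subtype.ext (by simp [mul_assoc])) }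
    · have h2 := orderOf_conj' g⁻¹ (x.1 : G)
      rw [inv_inv] at h2
      rw [h2, Subgroup.orderOf_coe, x.2]
    · have h2 := hmem g⁻¹ (x.1 : G) P x.1.2
      rw [inv_inv, hg'] at h2
      exact h2
  have hu : ∀ u : I, Nat.card {R : Sylow p G // (u : G) ∈ centralizer ((R : Subgroup G) : Set G)} =
      Nat.card (Sylow p (centralizer ({t} : Set G))) := by
    intro u
    obtain ⟨g, hg⟩ := isConj_iff.mp (hone (u : G) t u.2 ht)
    have e1 : {R : Sylow p G // (u : G) ∈ centralizer ((R : Subgroup G) : Set G)} ≃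
        {R : Sylow p G // t ∈ centralizer ((R : Subgroup G) : Set G)} :=
      { toFun := fun R => ⟨g • R.1, hg ▸ hmem g _ R.1 R.2⟩
        invFun := fun R => ⟨g⁻¹ • R.1, by
          have h2 := hmem g⁻¹ t R.1 R.2
          rwa [inv_inv, show g⁻¹ * t * g = (u : G) by rw [← hg]; group] at h2⟩
        left_inv := fun R => Subtype.ext (inv_smul_smul g R.1)
        right_inv := fun R => Subtype.ext (smul_inv_smul g R.1) }
    rw [Nat.card_congr e1]
    have hle : ∀ R : Sylow p G, t ∈ centralizer ((R : Subgroup G) : Set G) →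
        (R : Subgroup G) ≤ centralizer ({t} : Set G) := fun R hR x hx =>
      mem_centralizer_singleton_iff.mpr (mem_centralizer_iff.mp hR x hx)
    refine Nat.card_eq_of_bijective (fun R => (R.1).subtype (hle R.1 R.2)) ⟨fun R R' h => ?_, fun T => ?_⟩
    · have h' := congrArg (fun T : Sylow p (centralizer ({t} : Set G)) =>
        (T : Subgroup (centralizer ({t} : Set G))).map (centralizer ({t} : Set G)).subtype) h
      simp only [Sylow.coe_subtype, map_subgroupOf_eq_of_le (hle R.1 R.2),
        map_subgroupOf_eq_of_le (hle R'.1 R'.2)] at h'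
      exact Subtype.ext (Sylow.ext h')
    · have hT := (T : Subgroup (centralizer ({t} : Set G)))
      set K := (T : Subgroup (centralizer ({t} : Set G))).map (centralizer ({t} : Set G)).subtype
      have hKp : IsPGroup p K := T.isPGroup'.map _
      obtain ⟨R, hR⟩ := hKp.exists_le_sylow
      have hKR : K = (R : Subgroup G) := by
        refine eq_of_le_of_card_ge hR ?_
        rw [(L.2 R).1, card_map_of_injective (centralizer ({t} : Set G)).subtype_injective]
        exact Nat.le_of_dvd Nat.card_pos (T.dvd_card_of_dvd_card hpt)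
      have hRt : t ∈ centralizer ((R : Subgroup G) : Set G) := mem_centralizer_iff.mpr fun x hx => by
        rw [← hKR] at hx
        exact mem_centralizer_singleton_iff.mp (map_subtype_le _ hx)
      refine ⟨⟨R, hRt⟩, Sylow.ext ?_⟩
      rw [Sylow.coe_subtype, ← hKR, subgroupOf, comap_map_eq_self_of_injective (subtype_injective _)]
  have h1 : Nat.card (Σ u : I, {R : Sylow p G // (u : G) ∈ centralizer ((R : Subgroup G) : Set G)}) =
      Nat.card (Σ R : Sylow p G, {u : I // (u : G) ∈ centralizer ((R : Subgroup G) : Set G)}) :=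
    Nat.card_congr
      { toFun := fun x => ⟨x.2.1, x.1, x.2.2⟩
        invFun := fun x => ⟨x.2.1, x.1, x.2.2⟩
        left_inv := fun x => rfl
        right_inv := fun x => rfl }
  rw [Nat.card_sigma, Nat.card_sigma, Finset.sum_congr rfl (fun u _ => hu u),
    Finset.sum_congr rfl (fun R _ => hP R), Finset.sum_const, Finset.sum_const, Finset.card_univ,
    Finset.card_univ, smul_eq_mul, smul_eq_mul, ← Nat.card_eq_fintype_card, ← Nat.card_eq_fintype_card, L.1] at h1
  exact h1

omit hone

/-- The number of involutions of the centralizer of a Sylow subgroup of order `p`. -/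
theorem involutions_centralizer {p n c : ℕ} [hp : Fact p.Prime] (hp2 : p ≠ 2) (L : HasLocal G p n c)
    (h2 : 2 ∣ c) (P : Sylow p G) :
    Odd (Nat.card {x : centralizer ((P : Subgroup G) : Set G) // orderOf x = 2}) ∧
      Nat.card {x : centralizer ((P : Subgroup G) : Set G) // orderOf x = 2} < c ∧
      (c % 4 ≠ 0 → Nat.card {x : centralizer ((P : Subgroup G) : Set G) // orderOf x = 2} ∣ c / 2) := by
  classical
  haveI : Fact (Nat.Prime 2) := ⟨Nat.prime_two⟩
  set C := centralizer ((P : Subgroup G) : Set G) with hC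
  have hCcard : Nat.card C = p * c := (L.2 P).2
  have hPC := le_centralizer_self L P
  set P' := (P : Subgroup G).subgroupOf C with hP'
  have hP'c : Nat.card P' = p := by
    rw [Nat.card_congr (subgroupOfEquivOfLe hPC).toEquiv, (L.2 P).1]
  have hcen : ∀ (a : C) (b : C), a ∈ P' → a * b = b * a := fun a b ha =>
    Subtype.ext (mem_centralizer_iff.mp b.2 (a : G) ha)
  refine ⟨CfsgLib.Involution.card_involutions_odd (by rw [hCcard]; exact even_iff_two_dvd.mpr (h2.trans (dvd_mul_left c p))),
    ?_, ?_⟩
  · let f : Option {x : C // orderOf x = 2} → C ⧸ P' := fun o => o.elim ((1 : C) : C ⧸ P') fun x => (x.1 : C)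
    have hodd : ∀ a : C, a ∈ P' → a * a = 1 → a = 1 := by
      intro a ha haa
      have h1 : orderOf a ∣ 2 := orderOf_dvd_of_pow_eq_one (by rw [pow_two, haa])
      have h2' : orderOf a ∣ p := hP'c ▸ Subgroup.orderOf_dvd_natCard _ ha
      exact orderOf_eq_one_iff.mp (Nat.eq_one_of_dvd_coprimes
        ((Nat.coprime_primes Nat.prime_two hp.out).mpr (Ne.symm hp2)) h1 h2')
    have hf : Function.Injective f := by
      intro o o' h
      have key : ∀ x : {x : C // orderOf x = 2}, x.1 ∉ P' := by
        intro x hx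
        have h1 := hodd x.1 hx (by rw [← pow_two]; exact orderOf_dvd_iff_pow_eq_one.mp x.2.dvd)
        have h2 := x.2
        rw [h1, orderOf_one] at h2
        norm_num at h2
      rcases o with _ | x <;> rcases o' with _ | y
      · rfl
      · have h' := QuotientGroup.eq.mp h
        rw [inv_one, one_mul] at h'
        exact absurd h' (key y)
      · have h' := QuotientGroup.eq.mp h
        rw [mul_one] at h'
        exact absurd ((P'.inv_mem_iff).mp h') (key x)
      · set a := x.1⁻¹ * y.1 with ha
        have haP : a ∈ P' := QuotientGroup.eq.mp h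
        have hxx : x.1 * x.1 = 1 := by rw [← pow_two]; exact orderOf_dvd_iff_pow_eq_one.mp x.2.dvd
        have hyy : y.1 * y.1 = 1 := by rw [← pow_two]; exact orderOf_dvd_iff_pow_eq_one.mp y.2.dvd
        have hya : y.1 = x.1 * a := by rw [ha]; group
        have haa : a * a = 1 := by
          calc a * a = x.1 * x.1 * (a * a) := by rw [hxx, one_mul]
            _ = x.1 * (x.1 * a) * a := by group
            _ = x.1 * (a * x.1) * a := by rw [hcen a x.1 haP]
            _ = (x.1 * a) * (x.1 * a) := by group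
            _ = 1 := by rw [← hya, hyy]
        rw [hodd a haP haa, mul_one] at hya
        exact congrArg some (Subtype.ext hya.symm)
    have h1 := Nat.card_le_card_of_injective f hf
    rw [Finite.card_option] at h1
    have h3 : Nat.card (C ⧸ P') = c := by
      have := P'.card_eq_card_quotient_mul_card_subgroup
      rw [hCcard, hP'c, mul_comm] at this
      exact (Nat.eq_of_mul_eq_mul_right hp.out.pos this).symm
    omega
  · intro h4
    obtain ⟨d, rfl⟩ := h2
    have hd : ¬ 2 ∣ p * d := fun h => (Nat.prime_two.dvd_mul.mp h).elim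
      (fun h' => hp2 ((Nat.prime_dvd_prime_iff_eq Nat.prime_two hp.out).mp h').symm) fun h' => h4 (by omega)
    have hC2 : Nat.card C = 2 * (p * d) := by rw [hCcard]; ring
    rw [card_orderOf_eq_prime hC2 hd, show 2 - 1 = 1 from rfl, mul_one, Nat.mul_div_cancel_left d (by norm_num)]
    obtain ⟨S⟩ := (inferInstance : Nonempty (Sylow 2 C))
    have hN := card_normalizer_mul S
    rw [hC2] at hN
    have hPN : P' ≤ normalizer ((S : Subgroup C) : Set C) := by
      intro a ha
      rw [mem_normalizer_iff]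
      intro w
      rw [hcen a w ha, mul_inv_cancel_right]
    have h2N : 2 ∣ Nat.card (normalizer ((S : Subgroup C) : Set C)) :=
      (S.dvd_card_of_dvd_card (by rw [hC2]; exact dvd_mul_right 2 _)).trans (card_dvd_of_le le_normalizer)
    obtain ⟨k, hk⟩ := ((Nat.coprime_primes Nat.prime_two hp.out).mpr (Ne.symm hp2)).mul_dvd_of_dvd_of_dvd h2N
      (hP'c ▸ card_dvd_of_le hPN)
    rw [hk] at hN
    refine ⟨k, Nat.eq_of_mul_eq_mul_left (Nat.mul_pos (show 0 < 2 by norm_num) hp.out.pos) ?_⟩
    calc 2 * p * d = 2 * p * k * Nat.card (Sylow 2 C) := by rw [hN]; ring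
      _ = _ := by ring

omit [Group G] [Finite G] in
theorem one_add_sum_le_odd {G : Type*} [Group G] [Finite G] (s : Finset ℕ) (hs : 1 ∉ s) (hodd : ∀ n ∈ s, Odd n) :
    1 + ∑ n ∈ s, Nat.card {x : G // orderOf x = n} ≤ Nat.card {x : G // Odd (orderOf x)} := by
  classical
  have := Fintype.ofFinite G
  simp only [Nat.card_eq_fintype_card, Fintype.card_subtype]
  have hd : Set.PairwiseDisjoint (insert 1 s : Set ℕ) fun n => Finset.univ.filter fun x : G => orderOf x = n := by
    intro a _ b _ hab
    exact Finset.disjoint_filter.mpr fun x _ h1 h2 => hab (h1 ▸ h2)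
  have h : ((insert 1 s).biUnion fun n => Finset.univ.filter fun x : G => orderOf x = n).card ≤
      (Finset.univ.filter fun x : G => Odd (orderOf x)).card := by
    refine Finset.card_le_card fun x hx => ?_
    obtain ⟨n, hn, hxn⟩ := Finset.mem_biUnion.mp hx
    rw [Finset.mem_filter] at hxn ⊢
    refine ⟨hxn.1, ?_⟩
    rw [hxn.2]
    rcases Finset.mem_insert.mp hn with rfl | h
    · exact odd_one
    · exact hodd n h
  rw [Finset.card_biUnion (by simpa using hd), Finset.sum_insert hs] at h
  have h1 : (Finset.univ.filter fun x : G => orderOf x = 1).card = 1 := by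
    rw [Finset.card_eq_one]
    exact ⟨1, by ext x; simp [orderOf_eq_one_iff]⟩
  omega

include hone

/-- The elements of odd order, the sections of the involutions and the elements of order four. -/
theorem count_bound {t : G} (ht : orderOf t = 2) :
    Nat.card {x : G // Odd (orderOf x)} +
        Nat.card {u : G // orderOf u = 2} * Nat.card {y : centralizer ({t} : Set G) // Odd (orderOf y)} +
        Nat.card {x : G // orderOf x = 4} ≤ Nat.card G := by
  classical
  choose g hg using fun u : {u : G // orderOf u = 2} => isConj_iff.mp (hone t u ht u.2)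
  let f : {u : G // orderOf u = 2} × {y : centralizer ({t} : Set G) // Odd (orderOf y)} → G :=
    fun a => g a.1 * (t * (a.2.1 : G)) * (g a.1)⁻¹
  have htt : t * t = 1 := by rw [← pow_two, ← ht, pow_orderOf_eq_one]
  have hcy : ∀ y : {y : centralizer ({t} : Set G) // Odd (orderOf y)}, Commute t (y.1 : G) := fun y =>
    (mem_centralizer_singleton_iff.mp y.1.2).symm
  have hord : ∀ y : {y : centralizer ({t} : Set G) // Odd (orderOf y)},
      orderOf (t * (y.1 : G)) = 2 * orderOf (y.1 : G) := by
    intro y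
    rw [(hcy y).orderOf_mul_eq_mul_orderOf_of_coprime, ht]
    rw [ht, Subgroup.orderOf_coe]
    exact Nat.coprime_two_left.mpr y.2
  have hpow : ∀ a, f a ^ orderOf (a.2.1 : G) = a.1 := by
    intro a
    show (g a.1 * (t * (a.2.1 : G)) * (g a.1)⁻¹) ^ _ = _
    rw [conj_pow, (hcy a.2).mul_pow, pow_orderOf_eq_one, mul_one, ← pow_mod_orderOf t, ht,
      Nat.odd_iff.mp (by rw [Subgroup.orderOf_coe]; exact a.2.2), pow_one, hg]
  have hf : Function.Injective f := by
    intro a b h
    have hk : orderOf (a.2.1 : G) = orderOf (b.2.1 : G) := by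
      have h1 := congrArg orderOf h
      simp only [f, orderOf_conj', hord] at h1
      omega
    have hu : a.1 = b.1 := Subtype.ext (by rw [← hpow a, ← hpow b, h, hk])
    obtain ⟨u, y⟩ := a
    obtain ⟨v, z⟩ := b
    simp only at hu
    subst hu
    refine Prod.ext rfl (Subtype.ext (Subtype.ext ?_))
    simpa [f] using h
  have := Fintype.ofFinite G
  have h2 : Nat.card {u : G // orderOf u = 2} * Nat.card {y : centralizer ({t} : Set G) // Odd (orderOf y)} ≤
      (Set.range f).ncard := by
    rw [← Nat.card_prod, ← Nat.card_coe_set_eq, Nat.card_range_of_injective hf]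
  have hr : ∀ x ∈ Set.range f, ¬ Odd (orderOf x) ∧ orderOf x ≠ 4 := by
    rintro _ ⟨a, rfl⟩
    simp only [f, orderOf_conj', hord]
    have := Nat.odd_iff.mp a.2.2
    rw [← Subgroup.orderOf_coe] at this
    constructor
    · rw [Nat.odd_iff]; omega
    · omega
  have hd1 : Disjoint {x : G | Odd (orderOf x)} (Set.range f) :=
    Set.disjoint_left.mpr fun x h1 h2 => (hr x h2).1 h1
  have hd2 : Disjoint ({x : G | Odd (orderOf x)} ∪ Set.range f) {x : G | orderOf x = 4} := by
    refine Set.disjoint_left.mpr fun x h1 h2 => ?_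
    rcases h1 with h1 | h1
    · simp only [Set.mem_ofPred_eq] at h1 h2
      rw [h2] at h1; exact absurd h1 (by decide)
    · exact (hr x h1).2 h2
  have h3 := Set.ncard_le_card (({x : G | Odd (orderOf x)} ∪ Set.range f) ∪ {x : G | orderOf x = 4})
  rw [Set.ncard_union_eq hd2, Set.ncard_union_eq hd1] at h3
  rw [← Nat.card_coe_set_eq {x : G | Odd (orderOf x)}, ← Nat.card_coe_set_eq {x : G | orderOf x = 4}] at h3
  exact le_trans (by gcongr <;> first | exact h2 | rfl) h3

end CfsgLib.JankoCount
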