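import Cfsg.Agent.JankoCount.Sieve
import Cfsg.Agent.JankoCount.Local
import Cfsg.Agent.Dickson.Sixty
import Cfsg.Agent.Frobenius57.SimpleSixty
import Mathlib

/-!
# An involution centralizer in a simple group of order 175560
-/

set_option autoImplicit false
set_option linter.style.haveILetI false

namespace CfsgLib.JankoCount

open Subgroup CfsgLib.SylowToolkit CfsgLib.Sieve.PrimeLocal

variable {G : Type*} [Group G] [Finite G]

theorem compat_of_hasLocal {p q : ℕ} [hp : Fact p.Prime] [hq : Fact q.Prime] (hpq : p ≠ q) {a b : ℕ × ℕ}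
    (P : HasLocal G p a.1 a.2) (Q : HasLocal G q b.1 b.2) : compat p q a b = true := by
  have key : ∀ {p q : ℕ} [Fact p.Prime] [Fact q.Prime], p ≠ q → ∀ {a b : ℕ × ℕ}, HasLocal G p a.1 a.2 →
      HasLocal G q b.1 b.2 → half p q a b = true := by
    intro p q _ _ hpq a b P Q
    simp only [half, Bool.or_eq_true, Bool.and_eq_true, decide_eq_true_eq, Bool.not_eq_true']
    by_cases h1 : a.2 % q = 0
    · by_cases h2 : a.2 / q % q = 0
      · exact .inl (.inl (.inr h2))
      · cases h3 : noOne (a.2 / q) q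
        · exact .inl (.inr rfl)
        · refine .inr ?_
          obtain ⟨h4, h5⟩ := card_sylow_dvd_of_normalized P Q hpq (Nat.dvd_of_mod_eq_zero h1)
            (fun h => h2 (Nat.mod_eq_zero_of_dvd h)) (fun i hi hi1 => by
              simp only [noOne, List.all_eq_true, List.mem_range, Bool.or_eq_true, decide_eq_true_eq] at h3
              obtain ⟨hd, hne⟩ := Nat.mem_divisors.mp hi
              rcases h3 i (Nat.lt_succ_of_le (Nat.le_of_dvd (Nat.pos_of_ne_zero hne) hd)) with (h | h) | h
              · exact absurd (Nat.mod_eq_zero_of_dvd hd) h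
              · exact absurd hi1 h
              · exact h)
          exact ⟨Nat.mod_eq_zero_of_dvd h4, h5⟩
    · exact .inl (.inl (.inl h1))
  simp only [compat, Bool.and_eq_true, beq_iff_eq, decide_eq_decide, ← Nat.dvd_iff_mod_eq_zero]
  exact ⟨⟨⟨fun h => dvd_of_dvd P Q hpq h, fun h => dvd_of_dvd Q P hpq.symm h⟩, key hpq P Q⟩, key hpq.symm Q P⟩

theorem divisors_list : Nat.divisors 21945 = ({1, 3, 5, 7, 11, 15, 19, 21, 33, 35, 55, 57, 77, 95, 105, 133, 165,
    209, 231, 285, 385, 399, 627, 665, 1045, 1155, 1463, 1995, 3135, 4389, 7315, 21945} : Finset ℕ) := by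
  decide +kernel

theorem eq_prod {d : ℕ} (h : d ∣ 21945) :
    d = (if 19 ∣ d then 19 else 1) * (if 11 ∣ d then 11 else 1) * (if 7 ∣ d then 7 else 1) *
      (if 5 ∣ d then 5 else 1) * (if 3 ∣ d then 3 else 1) := by
  have key : ∀ d ∈ ({1, 3, 5, 7, 11, 15, 19, 21, 33, 35, 55, 57, 77, 95, 105, 133, 165,
    209, 231, 285, 385, 399, 627, 665, 1045, 1155, 1463, 1995, 3135, 4389, 7315, 21945} : Finset ℕ),
      d = (if 19 ∣ d then 19 else 1) * (if 11 ∣ d then 11 else 1) * (if 7 ∣ d then 7 else 1) *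
        (if 5 ∣ d then 5 else 1) * (if 3 ∣ d then 3 else 1) := by decide +kernel
  exact key d (divisors_list ▸ Nat.mem_divisors.mpr ⟨h, by norm_num⟩)

variable {p n c : ℕ} [hp : Fact p.Prime]

/-- The facts about one prime. -/
theorem exists_sj (hp2 : p ≠ 2) (hone : ∀ u v : G, orderOf u = 2 → orderOf v = 2 → IsConj u v)
    (L : HasLocal G p n c) {t : G} (ht : orderOf t = 2) {m : ℕ}
    (hm : Nat.card (centralizer ({t} : Set G)) = 8 * m) (hpm : ¬ p * p ∣ 8 * m)
    (hI : Nat.card {u : G // orderOf u = 2} = 21945 / m) :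
    ∃ s j, (s, j) ∈ sjs p m (n, c) ∧
      (2 ∣ c → s = Nat.card (Sylow p (centralizer ({t} : Set G))) ∧
        ∀ P : Sylow p G, j = Nat.card {x : centralizer ((P : Subgroup G) : Set G) // orderOf x = 2}) ∧
      s * (p - 1) ≤ Nat.card {x : centralizer ({t} : Set G) // orderOf x = p} := by
  by_cases hc : 2 ∣ c
  · obtain ⟨P⟩ := (inferInstance : Nonempty (Sylow p G))
    have hpt := (dvd_centralizer_iff hone hp2 L ht).mpr hc
    obtain ⟨k, hk⟩ := hpt
    have hpk : ¬ p ∣ k := fun h => hpm (hm ▸ hk ▸ Nat.mul_dvd_mul_left p h)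
    have hk' : Nat.card (centralizer ({t} : Set G)) = p ^ 1 * k := by rw [pow_one]; exact hk
    obtain ⟨hodd, hlt, hdiv⟩ := involutions_centralizer hp2 L hc P
    have hdc := double_count hone L ht ⟨k, hk⟩ P
    have hjconst : ∀ Q : Sylow p G, Nat.card {x : centralizer ((P : Subgroup G) : Set G) // orderOf x = 2} =
        Nat.card {x : centralizer ((Q : Subgroup G) : Set G) // orderOf x = 2} := by
      intro Q
      have h2 := double_count hone L ht ⟨k, hk⟩ Q
      refine Nat.eq_of_mul_eq_mul_left ?_ (hdc.symm.trans h2)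
      rw [← L.1]
      exact Nat.card_pos
    refine ⟨_, _, ?_, fun _ => ⟨rfl, hjconst⟩, ?_⟩
    · refine mem_sjs ?_ (by simp only; omega) (Nat.odd_iff.mp hodd) hlt hdiv ?_ card_sylow_mod ?_
      · rw [← hI]
        haveI : Nonempty {u : G // orderOf u = 2} := ⟨⟨t, ht⟩⟩
        exact Nat.card_pos
      · rw [← hI]; exact hdc
      · rw [← hm, hk, Nat.mul_div_cancel_left _ hp.out.pos]
        exact card_sylow_dvd hk' hpk
    · rw [card_orderOf_eq_prime hk hpk]
  · refine ⟨0, 0, ?_, fun h => absurd h hc, by simp⟩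
    simp [sjs, show c % 2 = 1 by omega]

theorem two_le {q : ℕ} [hq : Fact q.Prime] (hpq : p ≠ q) (L : HasLocal G p n c) :
    two p q (n, c) ≤ Nat.card {x : G // orderOf x = p * q} := by
  unfold two
  split_ifs with h
  · exact le_card_orderOf_mul L hpq (Nat.dvd_of_mod_eq_zero h)
  · exact Nat.zero_le _

omit hp

theorem mul_dvd_of_primes {a b k : ℕ} (ha : a.Prime) (hb : b.Prime) (hab : a ≠ b) (h1 : a ∣ k) (h2 : b ∣ k) :
    a * b ∣ k :=
  ((Nat.coprime_primes ha hb).mpr hab).mul_dvd_of_dvd_of_dvd h1 h2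

/-- The centralizer of an involution has order 120, six Sylow 5-subgroups, and no element of order 4 lives
in the group. -/
theorem centralizer_data [IsSimpleGroup G] (hG : Nat.card G = 175560) {t : G} (ht : orderOf t = 2) :
    Nat.card (centralizer ({t} : Set G)) = 120 ∧ Nat.card (Sylow 5 (centralizer ({t} : Set G))) = 6 ∧
      ∀ x : G, orderOf x ≠ 4 := by
  haveI : Fact (Nat.Prime 2) := ⟨Nat.prime_two⟩
  haveI : Fact (Nat.Prime 3) := ⟨by norm_num⟩
  haveI : Fact (Nat.Prime 5) := ⟨by norm_num⟩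
  haveI : Fact (Nat.Prime 7) := ⟨by norm_num⟩
  haveI : Fact (Nat.Prime 11) := ⟨by norm_num⟩
  haveI : Fact (Nat.Prime 19) := ⟨by norm_num⟩
  have hc : ¬ IsMulCommutative G := not_isMulCommutative_of_not_prime (by rw [hG]; norm_num)
  obtain ⟨S⟩ := (inferInstance : Nonempty (Sylow 2 G))
  have h8 : Nat.card (S : Subgroup G) = 8 := by
    simpa using card_sylow_subgroup_eq (k := 3) (m := 21945) (by rw [hG]; norm_num) (by norm_num) S
  have hone : ∀ u v : G, orderOf u = 2 → orderOf v = 2 → IsConj u v := fun u v hu hv =>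
    isConj_involutions hc S h8 hu hv
  set C := centralizer ({t} : Set G) with hC
  obtain ⟨m, hm⟩ : 8 ∣ Nat.card C := eight_dvd_centralizer hc S h8 ht
  have hmd : m ∣ 21945 := by
    have := hm ▸ hG ▸ card_subgroup_dvd_card C
    rw [show 175560 = 8 * 21945 by norm_num] at this
    exact Nat.dvd_of_mul_dvd_mul_left (by norm_num) this
  have hm0 : 0 < m := Nat.pos_of_dvd_of_pos hmd (by norm_num)
  have hI : Nat.card {u : G // orderOf u = 2} = 21945 / m := by
    have h := invol_mul_card hone ht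
    rw [← hC, hm, hG] at h
    symm
    refine Nat.div_eq_of_eq_mul_left hm0 ?_
    apply Nat.eq_of_mul_eq_mul_left (show 0 < 8 by norm_num)
    calc 8 * 21945 = Nat.card {u : G // orderOf u = 2} * (8 * m) := by rw [h]
      _ = _ := by ring
  have hm' : m ≠ 21945 := by
    rintro rfl
    have htop : C = ⊤ := (card_eq_iff_eq_top C).mp (by rw [hm, hG])
    have hZ : t ∈ center G := by
      rw [mem_center_iff]
      intro g
      exact mem_centralizer_singleton_iff.mp (hC ▸ htop.symm ▸ mem_top g : g ∈ centralizer ({t} : Set G))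
    rcases IsSimpleGroup.eq_bot_or_eq_top_of_normal (center G) inferInstance with hb' | ht'
    · rw [hb', mem_bot] at hZ
      rw [hZ, orderOf_one] at ht
      norm_num at ht
    · exact hc ⟨⟨fun x y => (mem_center_iff.mp (ht' ▸ mem_top y : y ∈ center G) x)⟩⟩
  have hsq : ∀ p ∈ ([19, 11, 7, 5, 3] : List ℕ), ¬ p * p ∣ 8 * m := by
    intro p hp h
    have h' := h.trans (Nat.mul_dvd_mul_left 8 hmd)
    fin_cases hp <;> norm_num at h'
  obtain ⟨na, ea, ca, La, hea, hna, hna1, hea2, head⟩ :=
    exists_local hc 19 9240 (by rw [hG]) (by norm_num)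
  obtain ⟨nb, eb, cb, Lb, heb, hnb, hnb1, heb2, hebd⟩ :=
    exists_local hc 11 15960 (by rw [hG]) (by norm_num)
  obtain ⟨nc, ec, cc, Lc, hec, hnc, hnc1, hec2, hecd⟩ :=
    exists_local hc 7 25080 (by rw [hG]) (by norm_num)
  obtain ⟨nd, ed, cd, Ld, hed, hnd, hnd1, hed2, hedd⟩ :=
    exists_local hc 5 35112 (by rw [hG]) (by norm_num)
  obtain ⟨ne, ee, ce, Le, hee, hne, hne1, hee2, heed⟩ :=
    exists_local hc 3 58520 (by rw [hG]) (by norm_num)
  have lt_of : ∀ {p e : ℕ}, 2 ≤ p → e ∣ p - 1 → e < p := fun {p e} hp h => by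
    have := Nat.le_of_dvd (by omega) h; omega
  have ha : (na, ca) ∈ opts 19 := mem_opts (by norm_num) (by rw [← hea]) (by norm_num) hna hna1 hea2
    (lt_of (by norm_num) head) (Nat.mod_eq_zero_of_dvd head)
  have hb : (nb, cb) ∈ opts 11 := mem_opts (by norm_num) (by rw [← heb]) (by norm_num) hnb hnb1 heb2
    (lt_of (by norm_num) hebd) (Nat.mod_eq_zero_of_dvd hebd)
  have hc' : (nc, cc) ∈ opts 7 := mem_opts (by norm_num) (by rw [← hec]) (by norm_num) hnc hnc1 hec2
    (lt_of (by norm_num) hecd) (Nat.mod_eq_zero_of_dvd hecd)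
  have hd : (nd, cd) ∈ opts 5 := mem_opts (by norm_num) (by rw [← hed]) (by norm_num) hnd hnd1 hed2
    (lt_of (by norm_num) hedd) (Nat.mod_eq_zero_of_dvd hedd)
  have he : (ne, ce) ∈ opts 3 := mem_opts (by norm_num) (by rw [← hee]) (by norm_num) hne hne1 hee2
    (lt_of (by norm_num) heed) (Nat.mod_eq_zero_of_dvd heed)
  obtain ⟨sa, ja, hsa, hsa', hoa⟩ := exists_sj (by norm_num) hone La ht hm (hsq 19 (by simp)) hI
  obtain ⟨sb, jb, hsb, hsb', hob⟩ := exists_sj (by norm_num) hone Lb ht hm (hsq 11 (by simp)) hI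
  obtain ⟨sc, jc, hsc, hsc', hoc⟩ := exists_sj (by norm_num) hone Lc ht hm (hsq 7 (by simp)) hI
  obtain ⟨sd, jd, hsd, hsd', hod⟩ := exists_sj (by norm_num) hone Ld ht hm (hsq 5 (by simp)) hI
  obtain ⟨se, je, hse, hse', hoe⟩ := exists_sj (by norm_num) hone Le ht hm (hsq 3 (by simp)) hI
  replace hoa : sa * 18 ≤ Nat.card {x : C // orderOf x = 19} := hoa
  replace hob : sb * 10 ≤ Nat.card {x : C // orderOf x = 11} := hob
  replace hoc : sc * 6 ≤ Nat.card {x : C // orderOf x = 7} := hoc
  replace hod : sd * 4 ≤ Nat.card {x : C // orderOf x = 5} := hod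
  replace hoe : se * 2 ≤ Nat.card {x : C // orderOf x = 3} := hoe
  have hpart : ∀ {p n c : ℕ} [Fact p.Prime], p ≠ 2 → ¬ p ∣ 8 → HasLocal G p n c →
      (if p ∣ m then p else 1) = part p (n, c) := by
    intro p n c hp hp2 hp8 L
    have hiff : p ∣ m ↔ 2 ∣ c := by
      rw [← dvd_centralizer_iff hone hp2 L ht, ← hC, hm]
      exact ⟨fun h => h.trans (dvd_mul_left m 8), fun h => (hp.out.dvd_mul.mp h).resolve_left hp8⟩
    simp only [part, hiff, ← Nat.dvd_iff_mod_eq_zero]
  have hmeq : m = part 19 (na, ca) * part 11 (nb, cb) * part 7 (nc, cc) * part 5 (nd, cd) * part 3 (ne, ce) := by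
    rw [← hpart (by norm_num) (by norm_num) La, ← hpart (by norm_num) (by norm_num) Lb,
      ← hpart (by norm_num) (by norm_num) Lc, ← hpart (by norm_num) (by norm_num) Ld,
      ← hpart (by norm_num) (by norm_num) Le]
    exact eq_prod hmd
  have hodd : oddBound (na, ca) (nb, cb) (nc, cc) (nd, cd) (ne, ce) ≤ Nat.card {x : G // Odd (orderOf x)} := by
    refine le_trans ?_ (one_add_sum_le_odd ({19, 11, 7, 5, 3, 19 * 11, 19 * 7, 19 * 5, 19 * 3, 11 * 7, 11 * 5,
      11 * 3, 7 * 5, 7 * 3, 5 * 3} : Finset ℕ) (by decide) (by decide))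
    repeat rw [Finset.sum_insert (by decide)]
    rw [Finset.sum_singleton, card_orderOf_eq La (m := 9240) (by rw [hG]) (by norm_num),
      card_orderOf_eq Lb (m := 15960) (by rw [hG]) (by norm_num),
      card_orderOf_eq Lc (m := 25080) (by rw [hG]) (by norm_num),
      card_orderOf_eq Ld (m := 35112) (by rw [hG]) (by norm_num),
      card_orderOf_eq Le (m := 58520) (by rw [hG]) (by norm_num)]
    have h1 := two_le (q := 11) (by norm_num) La
    have h2 := two_le (q := 7) (by norm_num) La
    have h3 := two_le (q := 5) (by norm_num) La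
    have h4 := two_le (q := 3) (by norm_num) La
    have h5 := two_le (q := 7) (by norm_num) Lb
    have h6 := two_le (q := 5) (by norm_num) Lb
    have h7 := two_le (q := 3) (by norm_num) Lb
    have h8 := two_le (q := 5) (by norm_num) Lc
    have h9 := two_le (q := 3) (by norm_num) Lc
    have h10 := two_le (q := 3) (by norm_num) Ld
    simp only [oddBound]
    omega
  have hcent : centBound (sa, ja) (sb, jb) (sc, jc) (sd, jd) (se, je) ≤ Nat.card {y : C // Odd (orderOf y)} := by
    refine le_trans ?_ (one_add_sum_le_odd ({19, 11, 7, 5, 3} : Finset ℕ) (by decide) (by decide))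
    repeat rw [Finset.sum_insert (by decide)]
    rw [Finset.sum_singleton]
    simp only [centBound]
    omega
  have hcnt := count_bound hone ht
  rw [← hC, hI, hG] at hcnt
  have hle' : oddBound (na, ca) (nb, cb) (nc, cc) (nd, cd) (ne, ce) +
      21945 / m * centBound (sa, ja) (sb, jb) (sc, jc) (sd, jd) (se, je) +
      Nat.card {x : G // orderOf x = 4} ≤ 175560 :=
    le_trans (by gcongr) hcnt
  rcases sieve_spec ha hb hc' hd he (compat_of_hasLocal (by norm_num) La Lb) (compat_of_hasLocal (by norm_num) La Lc)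
    (compat_of_hasLocal (by norm_num) La Ld) (compat_of_hasLocal (by norm_num) La Le)
    (compat_of_hasLocal (by norm_num) Lb Lc) (compat_of_hasLocal (by norm_num) Lb Ld)
    (compat_of_hasLocal (by norm_num) Lb Le) (compat_of_hasLocal (by norm_num) Lc Ld)
    (compat_of_hasLocal (by norm_num) Lc Le) (compat_of_hasLocal (by norm_num) Ld Le)
    hmeq hm' hsa hsb hsc hsd hse (by omega) with h | h | h | h
  · -- the genuine case
    obtain ⟨rfl, hs5, htot⟩ := h
    have h0 : Nat.card {x : G // orderOf x = 4} = 0 := by omega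
    refine ⟨hm, ?_, fun x hx => ?_⟩
    · have hc5 : 2 ∣ cd := (dvd_centralizer_iff hone (by norm_num) Ld ht).mp (by rw [← hC, hm]; norm_num)
      rw [← (hsd' hc5).1]
      exact hs5
    · haveI : Nonempty {x : G // orderOf x = 4} := ⟨⟨x, hx⟩⟩
      exact Nat.card_pos.ne' h0
  · -- a centralizer of order 24
    obtain ⟨rfl, hce, hje, htot⟩ := h
    exfalso
    simp only at hce hje
    subst hce
    obtain ⟨Q⟩ := (inferInstance : Nonempty (Sylow 3 G))
    set CQ := centralizer ((Q : Subgroup G) : Set G)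
    have hcard : Nat.card CQ = 2 ^ 2 * 3 := by rw [(Le.2 Q).2]; norm_num
    have hj := (hse' (by norm_num)).2 Q
    rw [hje] at hj
    obtain ⟨T⟩ := (inferInstance : Nonempty (Sylow 2 CQ))
    have hT : Nat.card (T : Subgroup CQ) = 4 := card_sylow_subgroup_eq hcard (by norm_num) T
    haveI : Subsingleton {x : CQ // orderOf x = 2} := (Nat.card_eq_one_iff_unique.mp hj.symm).1
    have hex : ∃ x ∈ (T : Subgroup CQ), orderOf x = 4 := by
      by_contra hno
      push Not at hno
      have h2 : ∀ x : (T : Subgroup CQ), x ≠ 1 → orderOf (x : CQ) = 2 := by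
        intro x hx
        have hd := Subgroup.orderOf_dvd_natCard (s := (T : Subgroup CQ)) x.2
        rw [hT] at hd
        have key : ∀ i ∈ (4 : ℕ).divisors, i = 1 ∨ i = 2 ∨ i = 4 := by decide
        rcases key _ (Nat.mem_divisors.mpr ⟨hd, by norm_num⟩) with e | e | e
        · exact absurd (Subtype.ext (orderOf_eq_one_iff.mp e)) hx
        · exact e
        · exact absurd e (hno _ x.2)
      haveI : Fintype (T : Subgroup CQ) := Fintype.ofFinite _
      have h3 : 2 < Fintype.card (T : Subgroup CQ) := by rw [← Nat.card_eq_fintype_card, hT]; norm_num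
      obtain ⟨a, b, d, hab, had, hbd⟩ := Fintype.two_lt_card_iff.mp h3
      have hkey : ∀ x y : (T : Subgroup CQ), x ≠ 1 → y ≠ 1 → x = y := fun x y hx hy =>
        Subtype.ext (congrArg (fun z : {x : CQ // orderOf x = 2} => z.1) (Subsingleton.elim
          (⟨(x : CQ), h2 x hx⟩ : {x : CQ // orderOf x = 2}) ⟨(y : CQ), h2 y hy⟩))
      by_cases ha1 : a = 1
      · exact hbd (hkey b d (fun h => hab (ha1.trans h.symm)) (fun h => had (ha1.trans h.symm)))
      · by_cases hb1 : b = 1
        · exact had (hkey a d ha1 (fun h => hbd (hb1.trans h.symm)))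
        · exact hab (hkey a b ha1 hb1)
    obtain ⟨x, -, hx⟩ := hex
    haveI : Nonempty {x : G // orderOf x = 4} := ⟨⟨(x : G), by rw [Subgroup.orderOf_coe, hx]⟩⟩
    have : 0 < Nat.card {x : G // orderOf x = 4} := Nat.card_pos
    omega
  · -- a centralizer of order 264
    obtain ⟨rfl, hs11, hs3⟩ := h
    exfalso
    simp only at hs11 hs3
    have hcb : 2 ∣ cb := (dvd_centralizer_iff hone (by norm_num) Lb ht).mp (by rw [← hC, hm]; norm_num)
    have hce : 2 ∣ ce := (dvd_centralizer_iff hone (by norm_num) Le ht).mp (by rw [← hC, hm]; norm_num)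
    rw [(hsb' hcb).1] at hs11
    rw [(hse' hce).1] at hs3
    obtain ⟨R⟩ := (inferInstance : Nonempty (Sylow 11 C))
    obtain ⟨Q⟩ := (inferInstance : Nonempty (Sylow 3 C))
    have hN := card_normalizer_mul Q
    rw [hs3, hm] at hN
    set N := normalizer ((Q : Subgroup C) : Set C)
    have hRn := sylow_normal_of_card_eq_one hs11 R
    haveI := hRn
    have hR : Nat.card (R : Subgroup C) = 11 := by
      simpa using card_sylow_subgroup_eq (k := 1) (m := 24) (by rw [hm]; norm_num) (by norm_num) R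
    have hQc : Nat.card (Q : Subgroup C) = 3 := by
      simpa using card_sylow_subgroup_eq (k := 1) (m := 88) (by rw [hm]; norm_num) (by norm_num) Q
    have hcyc : IsCyclic (R : Subgroup C) := isCyclic_of_prime_card hR
    have hidx : (centralizer ((R : Subgroup C) : Set C)).index ∣ 10 := by
      have h := relIndex_centralizer_dvd_sub_one R hR
      rwa [normalizer_eq_top, relIndex_top_right] at h
    have hRN : (R : Subgroup C) ≤ N := by
      intro r hr
      have hQR : ∀ q ∈ (Q : Subgroup C), q ∈ centralizer ((R : Subgroup C) : Set C) := by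
        intro q hq
        haveI : (centralizer ((R : Subgroup C) : Set C)).Normal := inferInstance
        rw [← QuotientGroup.eq_one_iff, ← orderOf_eq_one_iff]
        refine Nat.eq_one_of_dvd_coprimes (show Nat.Coprime 3 10 by norm_num) ?_ ?_
        · exact (orderOf_map_dvd (QuotientGroup.mk' (centralizer ((R : Subgroup C) : Set C))) q).trans
            (hQc ▸ Subgroup.orderOf_dvd_natCard _ hq)
        · exact (_root_.orderOf_dvd_natCard _).trans (by rw [← index_eq_card]; exact hidx)
      rw [mem_normalizer_iff]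
      intro w
      constructor
      · intro hw
        rwa [show r * w * r⁻¹ = w by rw [mem_centralizer_iff.mp (hQR w hw) r hr, mul_inv_cancel_right]]
      · intro hw
        have h1 := mem_centralizer_iff.mp (hQR _ hw) r hr
        rwa [show w = r * w * r⁻¹ by
          have : r * (r * w * r⁻¹) = r * w := by rw [h1]; group
          exact (mul_left_cancel this).symm]
    have h11 := hR ▸ card_dvd_of_le hRN
    obtain ⟨k, hk⟩ := h11
    rw [hk] at hN
    omega
  · -- a centralizer of order 1320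
    obtain ⟨rfl, hce5, hje, hs5⟩ := h
    exfalso
    simp only at hce5 hje hs5
    have hcd : 2 ∣ cd := (dvd_centralizer_iff hone (by norm_num) Ld ht).mp (by rw [← hC, hm]; norm_num)
    have hce : 2 ∣ ce := (dvd_centralizer_iff hone (by norm_num) Le ht).mp (by rw [← hC, hm]; norm_num)
    rw [(hsd' hcd).1] at hs5
    obtain ⟨⟨x, hxC⟩, hx⟩ := exists_prime_orderOf_dvd_card' (G := C) 3 (by rw [hm]; norm_num)
    rw [orderOf_mk] at hx
    obtain ⟨Q, hQ⟩ := exists_zpowers_eq_sylow Le hx
    set CQ := centralizer ((Q : Subgroup G) : Set G) with hCQ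
    have htQ : t ∈ CQ := by
      rw [hCQ, hQ, mem_centralizer_iff]
      intro b hb
      obtain ⟨i, rfl⟩ := mem_zpowers_iff.mp hb
      exact ((show Commute x t from mem_centralizer_singleton_iff.mp hxC).zpow_left i).eq
    have hj := (hse' hce).2 Q
    rw [hje] at hj
    haveI : Subsingleton {x : CQ // orderOf x = 2} := (Nat.card_eq_one_iff_unique.mp hj.symm).1
    have hCQle : ∀ g ∈ CQ, g ∈ C := by
      intro g hg
      rw [hC, mem_centralizer_singleton_iff]
      have h2 : g * t * g⁻¹ ∈ CQ := mul_mem (mul_mem hg htQ) (inv_mem hg)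
      have h1 := congrArg (fun z : {x : CQ // orderOf x = 2} => ((z.1 : CQ) : G)) (Subsingleton.elim
        (⟨⟨_, h2⟩, by rw [orderOf_mk, orderOf_conj', ht]⟩ : {x : CQ // orderOf x = 2})
        ⟨⟨t, htQ⟩, by rw [orderOf_mk, ht]⟩)
      exact mul_inv_eq_iff_eq_mul.mp h1
    obtain ⟨⟨y, hyQ⟩, hy⟩ := exists_prime_orderOf_dvd_card' (G := CQ) 5
      (by rw [(Le.2 Q).2]; exact hce5.trans (dvd_mul_left _ _))
    rw [orderOf_mk] at hy
    have hxy : Commute x y := (mem_centralizer_iff.mp hyQ x (hQ ▸ mem_zpowers x)).symm.symm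
    obtain ⟨T, hT⟩ := (IsPGroup.of_card (n := 1) (show Nat.card (zpowers (⟨y, hCQle y hyQ⟩ : C)) = 5 ^ 1 by
      rw [Nat.card_zpowers, orderOf_mk, hy, pow_one])).exists_le_sylow
    have hT5 : Nat.card (T : Subgroup C) = 5 := by
      simpa using card_sylow_subgroup_eq (k := 1) (m := 264) (by rw [hm]; norm_num) (by norm_num) T
    have hTe : zpowers (⟨y, hCQle y hyQ⟩ : C) = (T : Subgroup C) := eq_of_le_of_card_ge hT (by
      rw [hT5, Nat.card_zpowers, orderOf_mk, hy])
    set N := normalizer ((T : Subgroup C) : Set C)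
    have hmemN : ∀ g : C, Commute (g : G) y → g ∈ N := by
      intro g hg
      have : g ∈ centralizer ((T : Subgroup C) : Set C) := by
        rw [← hTe, mem_centralizer_iff]
        intro b hb
        obtain ⟨i, rfl⟩ := mem_zpowers_iff.mp hb
        exact ((show Commute (⟨y, hCQle y hyQ⟩ : C) g from Subtype.ext hg.symm.eq).zpow_left i).eq
      exact centralizer_le_normalizer _ this
    have h2N : 2 ∣ Nat.card N := by
      have h1 := Subgroup.orderOf_dvd_natCard N
        (hmemN ⟨t, mem_centralizer_singleton_iff.mpr rfl⟩ (mem_centralizer_singleton_iff.mp (hCQle y hyQ)).symm)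
      rwa [orderOf_mk, ht] at h1
    have h3N : 3 ∣ Nat.card N := by
      have h1 := Subgroup.orderOf_dvd_natCard N (hmemN ⟨x, hxC⟩ hxy)
      rwa [orderOf_mk, hx] at h1
    have hN := card_normalizer_mul T
    rw [hs5, hm] at hN
    change Nat.card N * 66 = 8 * 165 at hN
    omega

/-- The centralizer of an involution is `2 × A₅`. -/
theorem centralizer_iso [IsSimpleGroup G] (hG : Nat.card G = 175560) (S : Sylow 2 G) :
    IsMulCommutative (S : Subgroup G) ∧ Nat.card (S : Subgroup G) = 8 ∧ ∃ t : G, orderOf t = 2 ∧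
      Nonempty ((centralizer ({t} : Set G)) ≃* Multiplicative (ZMod 2) × alternatingGroup (Fin 5)) := by
  haveI : Fact (Nat.Prime 2) := ⟨Nat.prime_two⟩
  haveI : Fact (Nat.Prime 5) := ⟨by norm_num⟩
  obtain ⟨t, ht⟩ := exists_prime_orderOf_dvd_card' (G := G) 2 (by rw [hG]; norm_num)
  obtain ⟨hC120, hs5, h4⟩ := centralizer_data hG ht
  have h8 : ∀ T : Sylow 2 G, Nat.card (T : Subgroup G) = 8 := fun T => by
    simpa using card_sylow_subgroup_eq (k := 3) (m := 21945) (by rw [hG]; norm_num) (by norm_num) T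
  have hsq : ∀ (T : Sylow 2 G), ∀ w ∈ (T : Subgroup G), w * w = 1 := by
    intro T w hw
    have hd := Subgroup.orderOf_dvd_natCard (s := (T : Subgroup G)) hw
    rw [h8] at hd
    have key' : ∀ i ∈ (8 : ℕ).divisors, i = 1 ∨ i = 2 ∨ i = 4 ∨ i = 8 := by decide
    rcases key' _ (Nat.mem_divisors.mpr ⟨hd, by norm_num⟩) with e | e | e | e
    · rw [orderOf_eq_one_iff.mp e, mul_one]
    · rw [← pow_two, ← e]; exact pow_orderOf_eq_one w
    · exact absurd e (h4 w)
    · exact absurd (by rw [orderOf_pow, e]; norm_num) (h4 (w ^ 2))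
  have hcomm : ∀ (T : Sylow 2 G), ∀ x ∈ (T : Subgroup G), ∀ y ∈ (T : Subgroup G), x * y = y * x := by
    intro T x hx y hy
    calc x * y = (x * y)⁻¹ := (inv_eq_of_mul_eq_one_right (hsq T _ (mul_mem hx hy))).symm
      _ = y * x := by
        rw [mul_inv_rev, inv_eq_of_mul_eq_one_right (hsq T x hx), inv_eq_of_mul_eq_one_right (hsq T y hy)]
  refine ⟨⟨⟨fun x y => Subtype.ext (hcomm S x x.2 y y.2)⟩⟩, h8 S, t, ht, ?_⟩
  set C := centralizer ({t} : Set G) with hC
  set tC : C := ⟨t, mem_centralizer_singleton_iff.mpr rfl⟩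
  have htC : orderOf tC = 2 := by rw [orderOf_mk, ht]
  have hcen : ∀ g : C, g * tC = tC * g := fun g => Subtype.ext (mem_centralizer_singleton_iff.mp g.2)
  set Z := zpowers tC with hZ
  have hZle : Z ≤ center C := zpowers_le.mpr (mem_center_iff.mpr hcen)
  haveI : Z.Normal := ⟨fun a ha g => by
    rwa [mem_center_iff.mp (hZle ha) g, mul_inv_cancel_right]⟩
  have hZc : Nat.card Z = 2 := by rw [hZ, Nat.card_zpowers, htC]
  have hQ60 : Nat.card (C ⧸ Z) = 60 := by
    have := Z.card_eq_card_quotient_mul_card_subgroup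
    rw [hC120, hZc] at this
    omega
  haveI hsimple : IsSimpleGroup (C ⧸ Z) := CfsgLib.Dickson.isSimpleGroup_of_card_sixty hQ60 fun h1 => by
    obtain ⟨T⟩ := (inferInstance : Nonempty (Sylow 5 C))
    obtain ⟨U⟩ := (inferInstance : Nonempty (Sylow 5 (C ⧸ Z)))
    haveI := sylow_normal_of_card_eq_one h1 U
    set L := (U : Subgroup (C ⧸ Z)).comap (QuotientGroup.mk' Z) with hL
    have hLn : L.Normal := inferInstance
    have hU5 : Nat.card (U : Subgroup (C ⧸ Z)) = 5 := by
      simpa using card_sylow_subgroup_eq (k := 1) (m := 12) (by rw [hQ60]; norm_num) (by norm_num) U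
    have hLc : Nat.card L = 10 := by
      have h2 := L.card_mul_index
      have h3 : L.index = (U : Subgroup (C ⧸ Z)).index :=
        index_comap_of_surjective _ (QuotientGroup.mk'_surjective Z)
      have h4 := (U : Subgroup (C ⧸ Z)).card_mul_index
      rw [hU5, hQ60] at h4
      rw [h3, hC120] at h2
      have : (U : Subgroup (C ⧸ Z)).index = 12 := by omega
      rw [this] at h2
      omega
    have hall : ∀ R : Sylow 5 C, (R : Subgroup C) ≤ L := by
      intro R r hr
      show QuotientGroup.mk' Z r ∈ (U : Subgroup (C ⧸ Z))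
      haveI : Subsingleton (Sylow 5 (C ⧸ Z)) := (Nat.card_eq_one_iff_unique.mp h1).1
      have hR' : IsPGroup 5 ((R : Subgroup C).map (QuotientGroup.mk' Z)) := R.isPGroup'.map _
      obtain ⟨U', hU'⟩ := hR'.exists_le_sylow
      rw [Subsingleton.elim U' U] at hU'
      exact hU' ⟨r, hr, rfl⟩
    have hs : Nat.card (Sylow 5 C) = Nat.card (Sylow 5 L) := by
      refine Nat.card_eq_of_bijective (fun R : Sylow 5 C => R.subtype (hall R)) ⟨fun R R' h => ?_, fun V => ?_⟩
      · have h' := congrArg (fun V : Sylow 5 L => (V : Subgroup L).map L.subtype) h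
        simp only [Sylow.coe_subtype, map_subgroupOf_eq_of_le (hall R), map_subgroupOf_eq_of_le (hall R')] at h'
        exact Sylow.ext h'
      · obtain ⟨R, hR⟩ := (V.isPGroup'.map L.subtype).exists_le_sylow
        refine ⟨R, Sylow.ext (V.is_maximal' (R.subtype (hall R)).isPGroup' fun v hv => ?_)⟩
        rw [Sylow.coe_subtype, mem_subgroupOf]
        exact hR ⟨v, hv, rfl⟩
    have h10 := card_sylow_dvd (p := 5) (G := L) (k := 1) (m := 2) (by rw [hLc]; norm_num) (by norm_num)
    rw [← hs, hs5] at h10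
    norm_num at h10
  -- a subgroup of index two not containing the involution
  obtain ⟨T⟩ := (inferInstance : Nonempty (Sylow 2 C))
  have hTc : ∀ x ∈ (T : Subgroup C), ∀ y ∈ (T : Subgroup C), x * y = y * x := by
    obtain ⟨U, hU⟩ := (T.isPGroup'.map C.subtype).exists_le_sylow
    intro x hx y hy
    exact Subtype.ext (hcomm U _ (hU ⟨x, hx, rfl⟩) _ (hU ⟨y, hy, rfl⟩))
  haveI : IsMulCommutative (T : Subgroup C) := ⟨⟨fun x y => Subtype.ext (hTc x x.2 y y.2)⟩⟩
  have htT : tC ∈ (T : Subgroup C) := by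
    obtain ⟨T', hT'⟩ := (IsPGroup.of_card (n := 1) (show Nat.card Z = 2 ^ 1 by rw [hZc, pow_one])).exists_le_sylow
    obtain ⟨g, rfl⟩ := MulAction.exists_smul_eq C T' T
    exact ⟨tC, hT' (mem_zpowers tC), by show g * tC * g⁻¹ = tC; rw [hcen g, mul_inv_cancel_right]⟩
  obtain ⟨H, hH, hHi⟩ : ∃ H : Subgroup C, H.Normal ∧ H.index = 2 := by
    by_contra hno
    push Not at hno
    have h1 := CfsgLib.Transfer.eq_one_of_fixed_by_normalizer' (p := 2) (fun H hH => hno H hH) T htT
      (fun g _ => hcen g)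
    rw [h1, orderOf_one] at htC
    norm_num at htC
  haveI := hH
  have hHc : Nat.card H = 60 := by
    have := H.card_mul_index
    rw [hHi, hC120] at this
    omega
  have htH : tC ∉ H := by
    intro hmem
    have hZH : Z ≤ H := zpowers_le.mpr hmem
    rcases IsSimpleGroup.eq_bot_or_eq_top_of_normal (H.map (QuotientGroup.mk' Z))
      (hH.map _ (QuotientGroup.mk'_surjective Z)) with e | e
    · rw [Subgroup.map_eq_bot_iff, QuotientGroup.ker_mk'] at e
      have := Nat.le_of_dvd Nat.card_pos (card_dvd_of_le e)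
      omega
    · have h1 := congrArg (comap (QuotientGroup.mk' Z)) e
      rw [comap_map_eq_self (by rw [QuotientGroup.ker_mk']; exact hZH), comap_top] at h1
      rw [h1, index_top] at hHi
      norm_num at hHi
  have hHZ : H ⊓ Z = ⊥ := by
    rw [eq_bot_iff]
    intro z hz
    obtain ⟨hzH, hzZ⟩ := mem_inf.mp hz
    obtain ⟨i, rfl⟩ := mem_zpowers_iff.mp hzZ
    rw [mem_bot, ← zpow_mod_orderOf, htC]
    rw [← zpow_mod_orderOf, htC] at hzH
    have : i % ((2 : ℕ) : ℤ) = 0 ∨ i % ((2 : ℕ) : ℤ) = 1 := by omega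
    rcases this with e | e <;> rw [e] at hzH ⊢
    · simp
    · rw [zpow_one] at hzH; exact absurd hzH htH
  let φ : H →* C ⧸ Z := (QuotientGroup.mk' Z).comp H.subtype
  have hφ : Function.Bijective φ := by
    have hinj : Function.Injective φ := (injective_iff_map_eq_one φ).mpr fun a ha => by
      have : (a : C) ∈ H ⊓ Z := ⟨a.2, (QuotientGroup.eq_one_iff _).mp ha⟩
      rw [hHZ, mem_bot] at this
      exact Subtype.ext this
    exact (Nat.bijective_iff_injective_and_card φ).mpr ⟨hinj, by rw [hHc, hQ60]⟩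
  obtain ⟨e5⟩ := CfsgLib.SimpleSixty.nonempty_mulEquiv_alt_five hQ60
  have hcomm' : ∀ (z : Z) (h : H), Commute (z : C) h := fun z h => (mem_center_iff.mp (hZle z.2) h).symm
  let μ : Z × H →* C := MonoidHom.noncommCoprod Z.subtype H.subtype hcomm'
  have hμ : Function.Bijective μ := by
    have hinj : Function.Injective μ := (injective_iff_map_eq_one μ).mpr fun a ha => by
      have h1 : (a.1 : C) * a.2 = 1 := ha
      have h2 : (a.1 : C) ∈ H := by rw [eq_inv_of_mul_eq_one_left h1]; exact inv_mem a.2.2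
      have h3 : (a.1 : C) ∈ H ⊓ Z := ⟨h2, a.1.2⟩
      rw [hHZ, mem_bot] at h3
      rw [h3, one_mul] at h1
      exact Prod.ext (Subtype.ext h3) (Subtype.ext h1)
    exact (Nat.bijective_iff_injective_and_card μ).mpr ⟨hinj, by rw [Nat.card_prod, hZc, hHc, hC120]⟩
  have eZ : Z ≃* Multiplicative (ZMod 2) := mulEquivOfPrimeCardEq (p := 2) hZc (by simp)
  exact ⟨(MulEquiv.ofBijective μ hμ).symm.trans (eZ.prodCongr ((MulEquiv.ofBijective φ hφ).trans e5))⟩

end CfsgLib.JankoCount
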