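import Mathlib

/-!
# Arithmetic of the local data of a simple group of order 175560

For each prime `p` of `175560 / 8` a pair `(n, c)` stands for the number of Sylow `p`-subgroups and
for `|C(P)| / p`; a pair `(s, j)` for the number of Sylow `p`-subgroups of an involution centralizer
and the number of involutions of `C(P)`.
-/

set_option autoImplicit false

namespace CfsgLib.JankoCount

/-- The possible pairs `(n, c)` for `p`. -/
def opts (p : ℕ) : List (ℕ × ℕ) :=
  let m := 175560 / p
  ((List.range (m / p + 1)).filter fun k => decide (1 ≤ k) && decide (m % (p * k + 1) = 0)).flatMap fun k =>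
    (List.range p).filterMap fun e =>
      if 2 ≤ e ∧ (p - 1) % e = 0 ∧ m / (p * k + 1) % e = 0 then some (p * k + 1, m / (p * k + 1) / e) else none

theorem mem_opts {p n e c : ℕ} (hp : 0 < p) (hm : 175560 / p = n * (e * c)) (hm0 : 175560 / p ≠ 0)
    (hn : n % p = 1) (hn1 : 1 < n) (he : 2 ≤ e) (hep : e < p) (hed : (p - 1) % e = 0) : (n, c) ∈ opts p := by
  obtain ⟨k, hk⟩ : ∃ k, n = p * k + 1 := ⟨n / p, by have := Nat.div_add_mod n p; omega⟩
  have hk1 : 1 ≤ k := by
    rcases Nat.eq_zero_or_pos k with h | h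
    · rw [h] at hk; omega
    · exact h
  have hdvd : n ∣ 175560 / p := ⟨_, hm⟩
  simp only [opts, List.mem_flatMap, List.mem_filter, List.mem_range, Bool.and_eq_true, decide_eq_true_eq,
    List.mem_filterMap]
  refine ⟨k, ⟨?_, hk1, hk ▸ Nat.mod_eq_zero_of_dvd hdvd⟩, e, hep, ?_⟩
  · refine Nat.lt_succ_of_le ((Nat.le_div_iff_mul_le hp).mpr ?_)
    have := Nat.le_of_dvd (Nat.pos_of_ne_zero hm0) hdvd
    rw [mul_comm]; omega
  · have hq : 175560 / p / n = e * c := by rw [hm, Nat.mul_div_cancel_left _ (by omega)]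
    rw [← hk, hq, if_pos ⟨he, hed, Nat.mul_mod_right e c⟩, Nat.mul_div_cancel_left _ (by omega)]

/-- No divisor other than one of `b` is `1` modulo `q`. -/
def noOne (b q : ℕ) : Bool :=
  (List.range (b + 1)).all fun i => decide (b % i ≠ 0) || decide (i % q ≠ 1) || decide (i = 1)

/-- One half of the relation between two primes. -/
def half (p q : ℕ) (a b : ℕ × ℕ) : Bool :=
  decide (a.2 % q ≠ 0) || decide (a.2 / q % q = 0) || !noOne (a.2 / q) q ||
    (decide (a.1 % b.1 = 0) && decide (b.1 % p = 1))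

/-- The relation between two primes. -/
def compat (p q : ℕ) (a b : ℕ × ℕ) : Bool :=
  decide (a.2 % q = 0) == decide (b.2 % p = 0) && half p q a b && half q p b a

/-- The possible pairs `(s, j)` for `p` when the involution centralizer has order `8 * m`. -/
def sjs (p m : ℕ) (a : ℕ × ℕ) : List (ℕ × ℕ) :=
  if a.2 % 2 = 1 then [(0, 0)] else
    (List.range a.2).filterMap fun j =>
      if j % 2 = 1 ∧ (a.2 % 4 = 0 ∨ a.2 / 2 % j = 0) ∧ a.1 * j % (21945 / m) = 0 ∧
          8 * m / p % (a.1 * j / (21945 / m)) = 0 ∧ a.1 * j / (21945 / m) % p = 1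
        then some (a.1 * j / (21945 / m), j) else none

theorem mem_sjs {p m s j : ℕ} {a : ℕ × ℕ} (hI : 0 < 21945 / m) (hc : a.2 % 2 ≠ 1)
    (hj : j % 2 = 1) (hjc : j < a.2) (hjd : a.2 % 4 ≠ 0 → j ∣ a.2 / 2)
    (h : 21945 / m * s = a.1 * j) (hs : s % p = 1) (hsd : s ∣ 8 * m / p) : (s, j) ∈ sjs p m a := by
  simp only [sjs, if_neg hc, List.mem_filterMap, List.mem_range]
  refine ⟨j, hjc, ?_⟩
  have hdiv : a.1 * j / (21945 / m) = s := by rw [← h, Nat.mul_div_cancel_left _ hI]
  rw [hdiv, if_pos]
  refine ⟨hj, ?_, ?_, Nat.mod_eq_zero_of_dvd hsd, hs⟩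
  · by_cases h4 : a.2 % 4 = 0
    · exact .inl h4
    · exact .inr (Nat.mod_eq_zero_of_dvd (hjd h4))
  · rw [← h]; exact Nat.mul_mod_right _ _

/-- The part of `m` coming from `p`. -/
def part (p : ℕ) (a : ℕ × ℕ) : ℕ := if a.2 % 2 = 0 then p else 1

/-- Elements of order `p * q` seen from the centralizers of the Sylow `p`-subgroups. -/
def two (p q : ℕ) (a : ℕ × ℕ) : ℕ := if a.2 % q = 0 then a.1 * ((p - 1) * (q - 1)) else 0

/-- A lower bound for the number of elements of odd order. -/
def oddBound (a b c d e : ℕ × ℕ) : ℕ :=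
  1 + a.1 * 18 + b.1 * 10 + c.1 * 6 + d.1 * 4 + e.1 * 2 + two 19 11 a + two 19 7 a + two 19 5 a + two 19 3 a +
    two 11 7 b + two 11 5 b + two 11 3 b + two 7 5 c + two 7 3 c + two 5 3 d

/-- A lower bound for the number of elements of odd order of an involution centralizer. -/
def centBound (a b c d e : ℕ × ℕ) : ℕ := 1 + a.1 * 18 + b.1 * 10 + c.1 * 6 + d.1 * 4 + e.1 * 2

/-- The four surviving shapes. -/
def good (m tot : ℕ) (e : ℕ × ℕ) (sb sd se : ℕ × ℕ) : Bool :=
  (decide (m = 15) && decide (sd.1 = 6) && decide (tot = 175560)) ||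
    (decide (m = 3) && decide (e.2 = 4) && decide (se.2 = 1) && decide (tot = 175560)) ||
    (decide (m = 33) && decide (sb.1 = 1) && decide (se.1 = 22)) ||
    (decide (m = 165) && decide (e.2 % 5 = 0) && decide (se.2 = 1) && decide (sd.1 = 66))

/-- The check at a given choice of the pairs `(n, c)`. -/
def leaf (a b c d e : ℕ × ℕ) : Bool :=
  let m := part 19 a * part 11 b * part 7 c * part 5 d * part 3 e
  decide (m = 21945) ||
    (sjs 19 m a).all fun sa => (sjs 11 m b).all fun sb => (sjs 7 m c).all fun sc => (sjs 5 m d).all fun sd =>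
      (sjs 3 m e).all fun se =>
        decide (175560 < oddBound a b c d e + 21945 / m * centBound sa sb sc sd se) ||
          good m (oddBound a b c d e + 21945 / m * centBound sa sb sc sd se) e sb sd se

/-- The check over all choices. -/
def sieve : Bool :=
  (opts 19).all fun a => (opts 11).all fun b => !compat 19 11 a b || (opts 7).all fun c =>
    !(compat 19 7 a c && compat 11 7 b c) || (opts 5).all fun d =>
      !(compat 19 5 a d && compat 11 5 b d && compat 7 5 c d) || (opts 3).all fun e =>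
        !(compat 19 3 a e && compat 11 3 b e && compat 7 3 c e && compat 5 3 d e) || leaf a b c d e

theorem sieve_true : sieve = true := by decide +kernel

theorem sieve_spec {a b c d e sa sb sc sd se : ℕ × ℕ}
    (ha : a ∈ opts 19) (hb : b ∈ opts 11) (hc : c ∈ opts 7) (hd : d ∈ opts 5) (he : e ∈ opts 3)
    (hab : compat 19 11 a b = true) (hac : compat 19 7 a c = true) (had : compat 19 5 a d = true)
    (hae : compat 19 3 a e = true) (hbc : compat 11 7 b c = true) (hbd : compat 11 5 b d = true)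
    (hbe : compat 11 3 b e = true) (hcd : compat 7 5 c d = true) (hce : compat 7 3 c e = true)
    (hde : compat 5 3 d e = true) {m : ℕ}
    (hm : m = part 19 a * part 11 b * part 7 c * part 5 d * part 3 e) (hm' : m ≠ 21945)
    (hsa : sa ∈ sjs 19 m a) (hsb : sb ∈ sjs 11 m b) (hsc : sc ∈ sjs 7 m c) (hsd : sd ∈ sjs 5 m d)
    (hse : se ∈ sjs 3 m e)
    (hle : oddBound a b c d e + 21945 / m * centBound sa sb sc sd se ≤ 175560) :
    (m = 15 ∧ sd.1 = 6 ∧ oddBound a b c d e + 21945 / m * centBound sa sb sc sd se = 175560) ∨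
      (m = 3 ∧ e.2 = 4 ∧ se.2 = 1 ∧ oddBound a b c d e + 21945 / m * centBound sa sb sc sd se = 175560) ∨
      (m = 33 ∧ sb.1 = 1 ∧ se.1 = 22) ∨ (m = 165 ∧ 5 ∣ e.2 ∧ se.2 = 1 ∧ sd.1 = 66) := by
  have h := sieve_true
  simp only [sieve, List.all_eq_true] at h
  have h' := h a ha b hb
  rw [hab, Bool.not_true, Bool.false_or, List.all_eq_true] at h'
  have h' := h' c hc
  rw [hac, hbc, Bool.and_true, Bool.not_true, Bool.false_or, List.all_eq_true] at h'
  have h' := h' d hd
  rw [had, hbd, hcd, Bool.and_true, Bool.and_true, Bool.not_true, Bool.false_or, List.all_eq_true] at h'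
  have h' := h' e he
  rw [hae, hbe, hce, hde, Bool.and_true, Bool.and_true, Bool.and_true, Bool.not_true, Bool.false_or] at h'
  simp only [leaf, ← hm, Bool.or_eq_true, decide_eq_true_eq, hm', false_or, List.all_eq_true] at h'
  rcases h' sa hsa sb hsb sc hsc sd hsd se hse with h'' | h''
  · omega
  · simpa [good, Bool.or_eq_true, Bool.and_eq_true, decide_eq_true_eq, Nat.dvd_iff_mod_eq_zero, or_assoc,
      and_assoc] using h''

end CfsgLib.JankoCount
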